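/-
Goldschmidt's signalizer functor for a core-separated pair of four-groups.
-/
import Cfsg.Agent.Loc.Bal2
import Cfsg.Agent.Loc.GoldGen

set_option autoImplicit false
open Cfsg Subgroup CL.Even
open scoped commutatorElement

namespace CL.Loc

variable {G : Type*} [Group G] [Finite G] {p : ℕ} [Fact p.Prime]

theorem core_cent_inf_subgroupOf_le {H P : Subgroup G} (hPH : P ≤ H) :
    (CL.Grp.pPrimeCoreOf p 𝒞(P) ⊓ H).subgroupOf H ≤ CL.Grp.pPrimeCoreOf p 𝒞(P.subgroupOf H) := by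
  rw [← map_le_map_iff_of_injective H.subtype_injective, map_subgroupOf_eq_of_le inf_le_right,
    CL.Grp.map_pPrimeCoreOf_of_injective H.subtype_injective, map_subtype_centralizer,
    map_subgroupOf_eq_of_le hPH]
  exact le_trans (le_inf inf_le_left (le_inf inf_le_right (inf_le_left.trans (CL.Grp.pPrimeCoreOf_le p _))))
    (CL.Grp.pPrimeCoreOf_inf_le inf_le_right)

theorem core_cent_inf_bar_le {H P : Subgroup G} (hP : IsPGroup p P) (hPH : P ≤ H) :
    ((CL.Grp.pPrimeCoreOf p 𝒞(P) ⊓ H).subgroupOf H).map (QuotientGroup.mk' (pPrimeCore p H)) ≤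
      CL.Grp.pPrimeCoreOf p 𝒞((P.subgroupOf H).map (QuotientGroup.mk' (pPrimeCore p H))) := by
  rw [← map_core_cent_mk' (P := P.subgroupOf H) hP.comap_subtype]
  exact map_mono (core_cent_inf_subgroupOf_le hPH)

/-- A subgroup of `O_{p'}(C(P)) ∩ H` centralizing the `p`-components of `H` modulo cores lies in `O_{p'}(H)`. -/
theorem le_core_of_forall_pComp {H P X : Subgroup G} (hP : IsPGroup p P) (hPH : P ≤ H)
    (hX : X ≤ CL.Grp.pPrimeCoreOf p 𝒞(P) ⊓ H)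
    (h : ∀ J, PComp p J H → ⁅J, X⁆ ≤ CL.Grp.pPrimeCoreOf p H) : X ≤ CL.Grp.pPrimeCoreOf p H := by
  have hXH := hX.trans inf_le_right
  have h1 := (map_mono (comap_mono hX)).trans (core_cent_inf_bar_le hP hPH)
  refine le_core_of_bar_eq_bot hXH (eq_bot_of_cent_components (CL.Grp.pPrimeCore_quotient_pPrimeCore p H)
    (coprime_card_of_le h1 (CL.Grp.pPrimeCoreOf_coprime p _))
    (h1.trans (core_cent_le_cent_pCore (hP.comap_subtype.map _))) fun L hL => ?_)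
  obtain ⟨K, hK, rfl⟩ := exists_pComp_map_eq hL
  rw [← commutator_eq_bot_iff', commutator_map_mk'_eq_bot_iff,
    ← map_le_map_iff_of_injective H.subtype_injective, map_commutator, map_subgroupOf_eq_of_le hXH]
  exact h _ hK.map_subtype

theorem PComp.core_cent_inf_le_norm {H P J : Subgroup G} (hJ : PComp p J H) (hP : IsPGroup p P)
    (hPH : P ≤ H) : CL.Grp.pPrimeCoreOf p 𝒞(P) ⊓ H ≤ 𝒩(J) := by
  have h1 := le_norm_map H.subtype ((core_cent_inf_subgroupOf_le hPH).trans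
    (core_cent_le_norm_pComp hJ.subgroupOf hP.comap_subtype))
  rwa [map_subgroupOf_eq_of_le inf_le_right, map_subgroupOf_eq_of_le hJ.le] at h1

theorem PComp.commutator_core_cent_le {H P J : Subgroup G} (hJ : PComp p J H) (hP : IsPGroup p P)
    (hPH : P ≤ H) (h : ⁅J, P⁆ ≤ CL.Grp.pPrimeCoreOf p H) :
    ⁅J, CL.Grp.pPrimeCoreOf p 𝒞(P) ⊓ H⁆ ≤ CL.Grp.pPrimeCoreOf p H := by
  refine commutator_le_of_subgroupOf hJ.le inf_le_right (commutator_map_mk'_eq_bot_iff.1 ?_)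
  have h1 : (J.subgroupOf H).map (QuotientGroup.mk' (pPrimeCore p H)) ≤
      𝒞((P.subgroupOf H).map (QuotientGroup.mk' (pPrimeCore p H))) := by
    rwa [← commutator_eq_bot_iff_le_centralizer, commutator_map_mk'_eq_bot_iff,
      ← map_le_map_iff_of_injective H.subtype_injective, map_commutator, map_subgroupOf_eq_of_le hJ.le,
      map_subgroupOf_eq_of_le hPH]
  have h2 := (isCompIn_top_iff.2 hJ.subgroupOf.component_map).of_le h1 le_top
  refine le_bot_iff.1 ((commutator_mono le_rfl (core_cent_inf_bar_le hP hPH)).trans (le_of_eq ?_))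
  refine (h2.le_or_commutator_eq_bot_of_le_normalizer (CL.Grp.pPrimeCoreOf_le p _)
    (h1.trans (CL.Grp.le_normalizer_pPrimeCoreOf p _))).resolve_left fun h3 => ?_
  exact (Fact.out : p.Prime).coprime_iff_not_dvd.1
    (coprime_card_of_le h3 (CL.Grp.pPrimeCoreOf_coprime p _)).symm hJ.subgroupOf.dvd_card_map

omit [Finite G] [Fact p.Prime] in
theorem commutator_commutator_le_core {H J W Z : Subgroup G} (hJ : J ≤ H) (hW : W ≤ H) (hZ : Z ≤ H)
    (hWJ : W ≤ 𝒩(J)) (h : ⁅J, Z⁆ ≤ CL.Grp.pPrimeCoreOf p H) :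
    ⁅J, ⁅W, Z⁆⁆ ≤ CL.Grp.pPrimeCoreOf p H := by
  have hn := CL.Grp.le_normalizer_pPrimeCoreOf p H
  rw [commutator_comm]
  refine three_subgroups_of_le_normalizer (hW.trans hn) (hZ.trans hn) (hJ.trans hn) ?_ ?_
  · rw [commutator_comm Z]
    exact (commutator_mono h le_rfl).trans (le_normalizer_iff_commutator_le_left.1 (hW.trans hn))
  · exact (commutator_mono (le_normalizer_iff_commutator_le_left.1 hWJ) le_rfl).trans h

/-- Core separation in ambient terms. -/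
structure CoreSep (A₁ A₂ : Subgroup G) : Prop where
  ea : IsElementaryAbelian 2 (A₁ ⊔ A₂)
  card₁ : Nat.card A₁ = 4
  card₂ : Nat.card A₂ = 4
  sep : ∀ a ∈ A₁ ⊔ A₂, a ≠ 1 → ∀ J, PComp 2 J (centralizer {a}) →
    ⁅J, A₁⁆ ≤ centralizerPPrimeCore 2 a ∨ ⁅J, A₂⁆ ≤ centralizerPPrimeCore 2 a

/-- One half of Goldschmidt's functor. -/
def sepTheta (A : Subgroup G) (a : G) : Subgroup G :=
  ⁅centralizerPPrimeCore 2 a, A⁆ ⊔ (centralizerPPrimeCore 2 a ⊓ CL.Grp.pPrimeCoreOf 2 𝒞(A))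

theorem coreSep_of_isCoreSeparated {A₁ A₂ : Subgroup G} (h : IsCoreSeparated A₁ A₂) : CoreSep A₁ A₂ := by
  obtain ⟨h1, h2, h3, h4, -, -, h5, h6⟩ := h
  refine ⟨ea_sup h1 h2 fun x hx y hy => (h5 x hx y hy).symm, h3, h4, fun a ha h7 J hJ => ?_⟩
  have := h6 a ha h7 _ (isPComponent_iff.2 hJ.subgroupOf)
  rwa [map_subgroupOf_eq_of_le hJ.le] at this

namespace CoreSep

variable {A₁ A₂ : Subgroup G}

omit [Finite G] in
theorem symm (h : CoreSep A₁ A₂) : CoreSep A₂ A₁ :=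
  ⟨sup_comm A₁ A₂ ▸ h.ea, h.card₂, h.card₁, fun a ha h1 J hJ =>
    (h.sep a (sup_comm A₁ A₂ ▸ ha) h1 J hJ).symm⟩

omit [Finite G] in
theorem le_cent (h : CoreSep A₁ A₂) {a : G} (ha : a ∈ A₁ ⊔ A₂) : A₁ ⊔ A₂ ≤ centralizer {a} := by
  rw [← cent_zpowers]
  exact ea_le_centralizer_of_le h.ea le_rfl (zpowers_le.2 ha)

omit [Finite G] in
theorem le_norm_core (h : CoreSep A₁ A₂) {a : G} (ha : a ∈ A₁ ⊔ A₂) :
    A₁ ⊔ A₂ ≤ 𝒩(centralizerPPrimeCore 2 a) :=
  (h.le_cent ha).trans (CL.Grp.le_normalizer_pPrimeCoreOf 2 _)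

omit [Finite G] in
theorem le_norm (h : CoreSep A₁ A₂) {B : Subgroup G} (hB : B ≤ A₁ ⊔ A₂) : A₁ ⊔ A₂ ≤ 𝒩(B) :=
  ea_le_normalizer_of_le h.ea le_rfl hB

omit [Finite G] in
theorem isPGroup (h : CoreSep A₁ A₂) {B : Subgroup G} (hB : B ≤ A₁ ⊔ A₂) : IsPGroup 2 B :=
  (ea_isPGroup h.ea).to_le hB

theorem cop (h : CoreSep A₁ A₂) {B X : Subgroup G} (hB : B ≤ A₁ ⊔ A₂) {a : G}
    (hX : X ≤ centralizerPPrimeCore 2 a) : (Nat.card B).Coprime (Nat.card X) := by
  obtain ⟨n, hn⟩ := IsPGroup.iff_card.1 (h.isPGroup hB)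
  rw [hn]
  exact (coprime_card_of_le hX (CL.Grp.pPrimeCoreOf_coprime 2 _)).symm.pow_left n

theorem solv (h : CoreSep A₁ A₂) {B : Subgroup G} (hB : B ≤ A₁ ⊔ A₂) : Group.IsSolvable B :=
  haveI := (h.isPGroup hB).isNilpotent
  inferInstance

theorem card_zpowers (h : CoreSep A₁ A₂) {t : G} (ht : t ∈ A₁ ⊔ A₂) (h1 : t ≠ 1) :
    Nat.card (zpowers t) = 2 := by
  rw [Nat.card_zpowers, ea_orderOf h.ea ht h1]

theorem step₁ (h : CoreSep A₁ A₂) {a t : G} (ha : a ∈ A₁ ⊔ A₂) (ht : t ∈ A₁) (h1 : t ≠ 1) :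
    ⁅centralizerPPrimeCore 2 a ⊓ centralizer {t}, A₁⁆ ≤ centralizerPPrimeCore 2 t := by
  have ht' : t ∈ A₁ ⊔ A₂ := mem_sup_left ht
  have hA := h.le_cent ht'
  have hP := h.isPGroup (zpowers_le.2 ha)
  have hPH := (zpowers_le.2 ha).trans hA
  have hW : centralizerPPrimeCore 2 a ⊓ centralizer {t} =
      CL.Grp.pPrimeCoreOf 2 𝒞(zpowers a) ⊓ centralizer {t} := by rw [cent_zpowers]; rfl
  set W := centralizerPPrimeCore 2 a ⊓ centralizer {t}
  have hAW : A₁ ⊔ A₂ ≤ 𝒩(W) := le_normalizer_inf' (h.le_norm_core ha) (hA.trans le_normalizer)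
  have hWA : ⁅W, A₁⁆ ≤ W := le_normalizer_iff_commutator_le_left.1 (le_sup_left.trans hAW)
  refine le_core_of_forall_pComp hP hPH (hWA.trans hW.le) fun J hJ => ?_
  have hWJ : W ≤ 𝒩(J) := hW.le.trans (hJ.core_cent_inf_le_norm hP hPH)
  rcases h.sep t ht' h1 J hJ with h2 | h2
  · exact commutator_commutator_le_core hJ.le inf_le_right (le_sup_left.trans hA) hWJ h2
  obtain ⟨x, hx, y, hy, rfl⟩ := (mem_sup_of_le_normalizer (le_sup_left.trans (h.le_norm le_sup_right))).1 ha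
  by_cases h3 : x ∈ zpowers t
  · refine (commutator_mono le_rfl (hWA.trans hW.le)).trans (hJ.commutator_core_cent_le hP hPH ?_)
    rw [commutator_comm]
    refine (commutator_mono (zpowers_le.2 (mul_mem_sup h3 hy)) le_rfl).trans
      (commutator_sup_le_of_le_normalizer ((zpowers_le.2 ht').trans (h.le_norm_core ht'))
        (le_sup_right.trans (h.le_norm_core ht')) ?_ (by rwa [commutator_comm]))
    rw [commutator_eq_bot_iff'.2 (hJ.le.trans (cent_zpowers t).ge)]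
    exact bot_le
  refine (commutator_mono le_rfl ?_).trans
    (commutator_commutator_le_core hJ.le inf_le_right (le_sup_right.trans hA) hWJ h2)
  have h4 : zpowers t ⊔ zpowers x = A₁ := by
    have h5 : zpowers t ⊔ zpowers x ≤ A₁ := sup_le (zpowers_le.2 ht) (zpowers_le.2 hx)
    have h6 := CL.Grp.card_lt_card_of_lt (lt_of_le_of_ne (le_sup_left : zpowers t ≤ _ ⊔ zpowers x)
      fun e => h3 (e.ge (mem_sup_right (mem_zpowers x))))
    have h7 := card_dvd_of_le h5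
    rw [h.card_zpowers ht' h1] at h6
    rw [h.card₁] at h7
    refine eq_of_le_of_card_ge h5 ?_
    have h8 := Nat.le_of_dvd (by norm_num) h7
    rw [h.card₁]
    interval_cases Nat.card ↥(zpowers t ⊔ zpowers x) <;> omega
  have h5 : A₁ ≤ zpowers t ⊔ zpowers (x * y) ⊔ A₂ := by
    rw [← h4]
    refine sup_le (le_sup_left.trans le_sup_left) (zpowers_le.2 ?_)
    simpa using mul_mem_sup (mem_sup_right (S := zpowers t) (mem_zpowers (x * y))) (inv_mem hy)
  have h6 : A₁ ⊔ A₂ ≤ 𝒩(⁅W, A₂⁆) := le_normalizer_commutator hAW (h.le_norm le_sup_right)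
  have h7 : zpowers t ⊔ zpowers (x * y) ≤ 𝒞(W) := sup_le
    (le_centralizer_iff.1 (inf_le_right.trans (cent_zpowers t).ge))
    (le_centralizer_iff.1 ((inf_le_left.trans (CL.Grp.pPrimeCoreOf_le 2 _)).trans (cent_zpowers _).ge))
  rw [commutator_comm]
  refine (commutator_mono h5 le_rfl).trans (commutator_sup_le_of_le_normalizer
    ((sup_le (zpowers_le.2 ht') (zpowers_le.2 ha)).trans h6) (le_sup_right.trans h6) ?_
    (commutator_comm _ _).le)
  rw [commutator_eq_bot_iff_le_centralizer.2 h7]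
  exact bot_le

theorem step₂ (h : CoreSep A₁ A₂) (hFT : ∀ H : Subgroup G, Odd (Nat.card H) → Group.IsSolvable H)
    {a : G} (ha : a ∈ A₁ ⊔ A₂) : sepTheta A₁ a ⊓ 𝒞(A₁) ≤ CL.Grp.pPrimeCoreOf 2 𝒞(A₁) := by
  have hn := le_sup_left.trans (h.le_norm_core ha)
  have h1 : ⁅centralizerPPrimeCore 2 a, A₁⁆ ≤ centralizerPPrimeCore 2 a :=
    le_normalizer_iff_commutator_le_left.1 hn
  have h2 : GoldHyp ⁅centralizerPPrimeCore 2 a, A₁⁆ A₁ A₁ :=
    ⟨(ea_mono h.ea le_sup_left).1, le_rfl, normalizer_commutator_ge_right _ _, h.cop le_sup_left h1,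
      hFT _ (Nat.coprime_two_right.1 (coprime_card_of_le h1 (CL.Grp.pPrimeCoreOf_coprime 2 _))),
      CL.Grp.commutator_commutator_eq hn (h.cop le_sup_left le_rfl) (Or.inl (h.solv le_sup_left))⟩
  have h3 : ⁅centralizerPPrimeCore 2 a, A₁⁆ ⊓ 𝒞(A₁) ≤ CL.Grp.pPrimeCoreOf 2 𝒞(A₁) := by
    refine h2.inf_centralizer_le_cocL.trans (iSup_le fun ⟨B, hB, b, hb, e⟩ => ?_)
    obtain rfl | ⟨t, ht, h4⟩ := B.bot_or_exists_ne_one
    · exfalso
      have h5 := h.card₁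
      rw [← e, bot_sup_eq, Nat.card_zpowers] at h5
      have h6 := orderOf_dvd_of_pow_eq_one (ea_pow h.ea (mem_sup_left hb))
      rw [h5] at h6
      omega
    refine le_trans (le_inf (inf_le_right.trans ((commutator_mono (inf_le_inf h1 (centralizer_le
      (Set.singleton_subset_iff.2 ht))) le_rfl).trans (h.step₁ ha (hB ht) h4))) inf_le_left) ?_
    exact CL.Grp.pPrimeCoreOf_inf_le (centralizer_le (Set.singleton_subset_iff.2 (hB ht)))
  rintro x ⟨hx, hx'⟩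
  obtain ⟨d, hd, c, hc, rfl⟩ := (CL.Grp.mem_sup_iff_of_le_normalizer
    (inf_le_left.trans (normalizer_commutator_ge_left _ _))).1 hx
  refine mul_mem (h3 ⟨hd, ?_⟩) hc.2
  simpa using Subgroup.mul_mem _ hx' (Subgroup.inv_mem _ (CL.Grp.pPrimeCoreOf_le 2 _ hc.2))

omit [Finite G] in
theorem theta_le (h : CoreSep A₁ A₂) {a : G} (ha : a ∈ A₁ ⊔ A₂) :
    sepTheta A₁ a ≤ centralizerPPrimeCore 2 a :=
  sup_le (le_normalizer_iff_commutator_le_left.1 (le_sup_left.trans (h.le_norm_core ha))) inf_le_left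

omit [Finite G] in
theorem le_norm_theta (h : CoreSep A₁ A₂) {a : G} (ha : a ∈ A₁ ⊔ A₂) : A₁ ⊔ A₂ ≤ 𝒩(sepTheta A₁ a) :=
  le_normalizer_sup' (le_normalizer_commutator (h.le_norm_core ha) (h.le_norm le_sup_left))
    (le_normalizer_inf' (h.le_norm_core ha) ((ea_le_centralizer_of_le h.ea le_rfl le_sup_left).trans
      (CL.Grp.le_normalizer_pPrimeCoreOf 2 _)))

theorem decomp (h : CoreSep A₁ A₂) (hFT : ∀ H : Subgroup G, Odd (Nat.card H) → Group.IsSolvable H)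
    {a : G} (ha : a ∈ A₁ ⊔ A₂) {T : Subgroup G} (hT : T ≤ sepTheta A₁ a) (hn : A₁ ≤ 𝒩(T)) :
    T ≤ ⁅T, A₁⁆ ⊔ (T ⊓ CL.Grp.pPrimeCoreOf 2 𝒞(A₁)) := by
  refine (CL.Grp.commutator_sup_centralizer_eq hn (h.cop le_sup_left (hT.trans (h.theta_le ha)))
    (Or.inl (h.solv le_sup_left))).ge.trans (sup_le_sup_left (le_inf inf_le_left ?_) _)
  exact (inf_le_inf_right _ hT).trans (h.step₂ hFT ha)

theorem commutator_le (h : CoreSep A₁ A₂)
    (hFT : ∀ H : Subgroup G, Odd (Nat.card H) → Group.IsSolvable H) {a b : G} (ha : a ∈ A₁ ⊔ A₂)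
    (hb : b ∈ A₁ ⊔ A₂) {T J : Subgroup G} (hT : T ≤ sepTheta A₁ a) (hTb : T ≤ centralizer {b})
    (hn : A₁ ≤ 𝒩(T)) (hJ : PComp 2 J (centralizer {b})) (h1 : ⁅J, A₁⁆ ≤ centralizerPPrimeCore 2 b) :
    ⁅J, T⁆ ≤ centralizerPPrimeCore 2 b := by
  have hA := le_sup_left.trans (h.le_cent hb)
  have hN := hTb.trans (CL.Grp.le_normalizer_pPrimeCoreOf 2 _)
  have hTJ : T ≤ 𝒩(J) := le_trans (le_inf ((hT.trans (h.theta_le ha)).trans (by rw [cent_zpowers]; rfl)) hTb)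
    (hJ.core_cent_inf_le_norm (h.isPGroup (zpowers_le.2 ha)) ((zpowers_le.2 ha).trans (h.le_cent hb)))
  rw [commutator_comm]
  refine (commutator_mono (h.decomp hFT ha hT hn) le_rfl).trans (commutator_sup_le_of_le_normalizer
    ((le_normalizer_iff_commutator_le_left.1 hn).trans hN) (inf_le_left.trans hN) ?_ ?_) <;>
    rw [commutator_comm]
  · exact commutator_commutator_le_core hJ.le hTb hA hTJ h1
  · exact (commutator_mono le_rfl (le_inf inf_le_right (inf_le_left.trans hTb))).trans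
      (hJ.commutator_core_cent_le (h.isPGroup le_sup_left) hA h1)

/-- Goldschmidt's signalizer functor. -/
theorem isSignalizerFunctor (h : CoreSep A₁ A₂)
    (hFT : ∀ H : Subgroup G, Odd (Nat.card H) → Group.IsSolvable H) :
    IsSignalizerFunctor 2 (A₁ ⊔ A₂) fun a => sepTheta A₁ a ⊓ sepTheta A₂ a := by
  have hn : ∀ a ∈ A₁ ⊔ A₂, A₁ ⊔ A₂ ≤ 𝒩(sepTheta A₁ a ⊓ sepTheta A₂ a) := fun a ha =>
    le_normalizer_inf' (h.le_norm_theta ha)
      (sup_comm A₁ A₂ ▸ h.symm.le_norm_theta (sup_comm A₁ A₂ ▸ ha))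
  refine ⟨fun a ha _ => (inf_le_left.trans (h.theta_le ha)).trans (CL.Grp.pPrimeCoreOf_le 2 _),
    fun a ha _ => Nat.prime_two.coprime_iff_not_dvd.1 (coprime_card_of_le
      (inf_le_left.trans (h.theta_le ha)) (CL.Grp.pPrimeCoreOf_coprime 2 _)).symm,
    fun a ha _ b hb x hx => (mem_normalizer_iff.1 (hn a ha hb) x).1 hx, fun a ha _ b hb h1 => ?_⟩
  set T := sepTheta A₁ a ⊓ sepTheta A₂ a ⊓ centralizer {b}
  have hT : A₁ ⊔ A₂ ≤ 𝒩(T) := le_normalizer_inf' (hn a ha) ((h.le_cent hb).trans le_normalizer)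
  have h₁ : T ≤ sepTheta A₁ a := inf_le_left.trans inf_le_left
  have h₂ : T ≤ sepTheta A₂ a := inf_le_left.trans inf_le_right
  have ha' : a ∈ A₂ ⊔ A₁ := sup_comm A₁ A₂ ▸ ha
  have h2 : T ≤ centralizerPPrimeCore 2 b := by
    refine le_core_of_forall_pComp (h.isPGroup (zpowers_le.2 ha)) ((zpowers_le.2 ha).trans (h.le_cent hb))
      (le_inf ((h₁.trans (h.theta_le ha)).trans (by rw [cent_zpowers]; rfl)) inf_le_right) fun J hJ => ?_
    rcases h.sep b hb h1 J hJ with h3 | h3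
    · exact h.commutator_le hFT ha hb h₁ inf_le_right (le_sup_left.trans hT) hJ h3
    · exact h.symm.commutator_le hFT ha' (sup_comm A₁ A₂ ▸ hb) h₂ inf_le_right (le_sup_right.trans hT) hJ h3
  exact le_inf ((h.decomp hFT ha h₁ (le_sup_left.trans hT)).trans
      (sup_le_sup (commutator_mono h2 le_rfl) (inf_le_inf_right _ h2)))
    ((h.symm.decomp hFT ha' h₂ (le_sup_right.trans hT)).trans
      (sup_le_sup (commutator_mono h2 le_rfl) (inf_le_inf_right _ h2)))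

end CoreSep

end CL.Loc
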