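/-
Faithful irreducible modules of `p`-groups with a normal subgroup of type `(p, p)` are imprimitive.
-/
import Cfsg.Agent.Grp.PGroupCyc

set_option autoImplicit false
set_option linter.unusedSectionVars false

namespace CL.Loc

open Subgroup CL.Grp Cfsg Finset

/-- A central element `z` of order `p` and an element `e` of order `p` that is central modulo `z`. -/
theorem exists_central_pair {G : Type*} [Group G] [Finite G] {p : ℕ} [hp : Fact p.Prime] (hG : IsPGroup p G)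
    {E : Subgroup G} [E.Normal] (hE : IsElementaryAbelian p E) (hc : Nat.card E = p ^ 2) :
    ∃ z e : G, z ∈ center G ∧ orderOf z = p ∧ e ^ p = 1 ∧ e ∉ zpowers z ∧ ∀ g, g * e * g⁻¹ * e⁻¹ ∈ zpowers z := by
  have := hG.isNilpotent
  have h1 : E ≠ ⊥ := by
    rintro rfl
    have := Nat.one_lt_pow two_ne_zero hp.out.one_lt
    simp [← hc] at this
  obtain ⟨⟨z, hzE, hz⟩, hz1⟩ := ne_bot_iff_exists_ne_one.1 (inf_center_ne_bot h1)
  have hzo : orderOf z = p := orderOf_eq_prime (hE.2 z hzE) fun h => hz1 (Subtype.ext h)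
  have : (zpowers z).Normal := ⟨fun n hn g => by
    rwa [mem_center_iff.1 (zpowers_le_of_mem hz hn) g, mul_inv_cancel_right]⟩
  have h2 : E.map (QuotientGroup.mk' (zpowers z)) ≠ ⊥ := by
    rw [Ne, Subgroup.map_eq_bot_iff, QuotientGroup.ker_mk']
    intro h
    have := card_le_of_le h
    rw [hc, Nat.card_zpowers, hzo, sq] at this
    have := hp.out.one_lt
    nlinarith
  have := Normal.map (inferInstance : E.Normal) _ (QuotientGroup.mk'_surjective (zpowers z))
  obtain ⟨⟨_, ⟨e, heE, rfl⟩, he⟩, he1⟩ := ne_bot_iff_exists_ne_one.1 (inf_center_ne_bot h2)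
  refine ⟨z, e, hz, hzo, hE.2 e heE, fun h => he1 (Subtype.ext ((QuotientGroup.eq_one_iff _).2 h)), fun g => ?_⟩
  rw [← QuotientGroup.eq_one_iff]
  have := mem_center_iff.1 he (g : G ⧸ zpowers z)
  simp only [QuotientGroup.mk'_apply] at this
  simp only [QuotientGroup.mk_mul, QuotientGroup.mk_inv, this, mul_inv_cancel_right, mul_inv_cancel]

section

variable {K V G : Type*} [Field K] [AddCommGroup V] [Module K V] [Group G] (ρ : G →* (V ≃ₗ[K] V))

/-- The fixed space of an element. -/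
def fixSp (g : G) : Submodule K V := LinearMap.eqLocus (ρ g : V →ₗ[K] V) LinearMap.id

theorem mem_fixSp {g : G} {v : V} : v ∈ fixSp ρ g ↔ ρ g v = v := Iff.rfl

theorem rho_mul (g h : G) (v : V) : ρ (g * h) v = ρ g (ρ h v) := by rw [map_mul]; rfl

theorem rho_pow_of_mem {g : G} {v : V} (h : v ∈ fixSp ρ g) (n : ℕ) : ρ (g ^ n) v = v := by
  induction n with
  | zero => simp
  | succ n ih => rw [pow_succ, rho_mul, (mem_fixSp ρ).1 h, ih]

theorem sum_mem_fixSp {g : G} {n : ℕ} (h : g ^ n = 1) (v : V) : ∑ m ∈ range n, ρ (g ^ m) v ∈ fixSp ρ g := by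
  rw [mem_fixSp, map_sum]
  have e := (sum_range_succ' (fun m => ρ (g ^ m) v) n).symm.trans (sum_range_succ (fun m => ρ (g ^ m) v) n)
  simp only [h, pow_zero, add_left_inj] at e
  rw [← e]
  exact sum_congr rfl fun m _ => by rw [pow_succ', rho_mul]

theorem map_fixSp (g h : G) : (fixSp ρ h).map (ρ g : V →ₗ[K] V) = fixSp ρ (g * h * g⁻¹) := by
  ext w
  constructor
  · rintro ⟨v, hv, rfl⟩
    rw [mem_fixSp, LinearEquiv.coe_coe, ← rho_mul, inv_mul_cancel_right, rho_mul, (mem_fixSp ρ).1 hv]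
  · intro hw
    refine ⟨ρ g⁻¹ w, ?_, by rw [LinearEquiv.coe_coe, ← rho_mul]; simp⟩
    rw [SetLike.mem_coe, mem_fixSp, ← rho_mul]
    conv_rhs => rw [← (mem_fixSp ρ).1 hw, ← rho_mul]
    congr 2
    group

theorem fixSp_eq_bot_of_central (hρ : Function.Injective ρ)
    (hirr : ∀ W : Submodule K V, (∀ g : G, ∀ w ∈ W, ρ g w ∈ W) → W = ⊥ ∨ W = ⊤) {c : G} (hc : c ∈ center G)
    (h1 : c ≠ 1) : fixSp ρ c = ⊥ := by
  refine (hirr _ fun g w hw => ?_).resolve_right fun h => h1 (hρ ?_)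
  · rw [mem_fixSp, ← rho_mul, ← mem_center_iff.1 hc g, rho_mul, (mem_fixSp ρ).1 hw]
  · ext v
    rw [map_one]
    exact (mem_fixSp ρ).1 (h ▸ Submodule.mem_top : v ∈ fixSp ρ c)

end

theorem exists_imprimitive (q : ℕ) [hq : Fact q.Prime] {V : Type*} [AddCommGroup V] [Module (ZMod q) V] [Nontrivial V]
    {G : Type*} [Group G] [Finite G] (p : ℕ) [hp : Fact p.Prime] (ρ : G →* (V ≃ₗ[ZMod q] V))
    (hρ : Function.Injective ρ)
    (hirr : ∀ W : Submodule (ZMod q) V, (∀ g : G, ∀ w ∈ W, ρ g w ∈ W) → W = ⊥ ∨ W = ⊤) {z e : G} (hz : z ∈ center G)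
    (hzo : orderOf z = p) (hep : e ^ p = 1) (hez : e ∉ zpowers z) (hce : ∀ g, g * e * g⁻¹ * e⁻¹ ∈ zpowers z) :
    ∃ (H : Subgroup G) (W : Fin p → Submodule (ZMod q) V), H.index = p ∧
      iSup W = ⊤ ∧ iSupIndep W ∧
      (∀ h ∈ H, ∀ i, ∀ w ∈ W i, ρ h w ∈ W i) ∧
      (∀ i, ∃ h ∈ H, h ≠ 1 ∧ ∀ w ∈ W i, ρ h w = w) ∧
      ∀ g : G, g ∉ H → ∃ σ : Equiv.Perm (Fin p), orderOf σ = p ∧
        ∀ i, (W i).map (ρ g : V →ₗ[ZMod q] V) = W (σ i) := by
  have : NeZero p := ⟨hp.out.ne_zero⟩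
  have hzp : z ^ p = 1 := by rw [← hzo, pow_orderOf_eq_one]
  have hfpf : ∀ c ∈ zpowers z, c ≠ 1 → fixSp ρ c = ⊥ := fun c hc h1 =>
    fixSp_eq_bot_of_central ρ hρ hirr (zpowers_le_of_mem hz hc) h1
  have hcom : ∀ g, Commute g z := fun g => mem_center_iff.1 hz g
  have hcp : ∀ c ∈ zpowers z, c ^ p = 1 := fun c hc => by
    rw [← orderOf_dvd_iff_pow_eq_one, ← hzo]; exact orderOf_dvd_of_mem_zpowers hc
  have hsum : ∀ c ∈ zpowers z, c ≠ 1 → ∀ v, ∑ m ∈ range p, ρ (c ^ m) v = 0 := fun c hc h1 v => by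
    have := sum_mem_fixSp ρ (hcp c hc) v
    rwa [hfpf c hc h1, Submodule.mem_bot] at this
  have hz1 : z ≠ 1 := by rintro rfl; exact hp.out.one_lt.ne (by simpa using hzo)
  have hpq : (p : ZMod q) ≠ 0 := by
    intro h0
    obtain rfl : q = p := (Nat.prime_dvd_prime_iff_eq hq.out hp.out).1 ((ZMod.natCast_eq_zero_iff _ _).1 h0)
    have : CharP (Module.End (ZMod q) V) q := charP_of_injective_algebraMap (R := ZMod q)
      (algebraMap (ZMod q) (Module.End (ZMod q) V)).injective q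
    let a : Module.End (ZMod q) V := (ρ z).toLinearMap
    have h1 : (a - 1) ^ q = 0 := by
      rw [sub_pow_char_of_commute _ (Commute.one_right _), one_pow, sub_eq_zero]
      ext v
      rw [Module.End.pow_apply]
      change (ρ z)^[q] v = v
      rw [← LinearEquiv.coe_pow, ← map_pow, hzp, map_one]
      rfl
    have h2 : Function.Injective (a - 1 : Module.End (ZMod q) V) := by
      rw [← LinearMap.ker_eq_bot, eq_bot_iff, ← hfpf z (mem_zpowers z) hz1]
      intro v hv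
      exact sub_eq_zero.1 hv
    have h3 := Module.End.iterate_injective h2 q
    rw [h1] at h3
    obtain ⟨v, hv⟩ := exists_ne (0 : V)
    exact hv (h3 (by simp))
  let W : Fin p → Submodule (ZMod q) V := fun i => fixSp ρ (e * z ^ (i : ℕ))
  have hyp : ∀ i : ℕ, (e * z ^ i) ^ p = 1 := fun i => by
    rw [((hcom e).pow_right i).mul_pow, hep, one_mul, ← pow_mul, mul_comm, pow_mul, hzp, one_pow]
  have htop : iSup W = ⊤ := by
    rw [eq_top_iff]
    intro v _
    have h1 : ∑ i : Fin p, ∑ m ∈ range p, ρ ((e * z ^ (i : ℕ)) ^ m) v ∈ iSup W :=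
      Submodule.sum_mem _ fun i _ => Submodule.mem_iSup_of_mem i (sum_mem_fixSp ρ (hyp i) v)
    have h2 : ∑ i : Fin p, ∑ m ∈ range p, ρ ((e * z ^ (i : ℕ)) ^ m) v = (p : ZMod q) • v := by
      rw [sum_comm, sum_eq_single 0]
      · simp [Nat.cast_smul_eq_nsmul]
      · intro m hm h0
        have h3 : z ^ m ≠ 1 := pow_ne_one_of_lt_orderOf h0 (hzo ▸ mem_range.1 hm)
        have h4 := hsum _ (npow_mem_zpowers z m) h3 v
        rw [sum_range] at h4
        rw [← map_zero (ρ (e ^ m)), ← h4, map_sum]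
        refine sum_congr rfl fun i _ => ?_
        rw [((hcom e).pow_right i).mul_pow, rho_mul, ← pow_mul, ← pow_mul, mul_comm]
      · intro h
        exact absurd (mem_range.2 hp.out.pos) h
    rw [h2] at h1
    exact (Submodule.smul_mem_iff _ hpq).1 h1
  have hk : ∀ g, ∃ k : Fin p, g * e * g⁻¹ = e * z ^ (k : ℕ) := fun g => by
    obtain ⟨n, hn⟩ := mem_powers_iff_mem_zpowers.2 (hce g)
    refine ⟨⟨n % p, Nat.mod_lt _ hp.out.pos⟩, ?_⟩
    have : z ^ (n % p) = z ^ n := by rw [← hzo, pow_mod_orderOf]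
    simp only at hn
    rw [this, ((hcom e).pow_right n).eq, hn, inv_mul_cancel_right]
  have hmap : ∀ (g : G) (k : Fin p), g * e * g⁻¹ = e * z ^ (k : ℕ) → ∀ i,
      (W i).map (ρ g : V →ₗ[ZMod q] V) = W (i + k) := fun g k h i => by
    simp only [W]
    rw [map_fixSp, Fin.val_add]
    congr 1
    have : z ^ ((i + k : ℕ) % p) = z ^ (i + k : ℕ) := (pow_eq_pow_mod _ hzp).symm
    rw [this, add_comm, pow_add, ← mul_assoc e, ← h, mul_assoc (g * e), ((hcom g⁻¹).pow_right i).eq]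
    simp only [mul_assoc]
  have hec : e ∉ center G := by
    intro h
    obtain ⟨v, hv⟩ := exists_ne (0 : V)
    have h0 : iSup W = ⊥ := iSup_eq_bot.2 fun i => fixSp_eq_bot_of_central ρ hρ hirr (mul_mem h (pow_mem hz _))
      fun h1 => hez (by rw [eq_inv_of_mul_eq_one_left h1]; exact inv_mem (npow_mem_zpowers z _))
    exact hv ((Submodule.mem_bot _).1 (h0 ▸ htop ▸ Submodule.mem_top : v ∈ (⊥ : Submodule (ZMod q) V)))
  refine ⟨centralizer {e}, W, ?_, htop, ?_, fun h hh i w hw => ?_, fun i => ⟨e * z ^ (i : ℕ), ?_, fun h1 => hez ?_,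
    fun w hw => hw⟩, fun g hg => ?_⟩
  · let f : G →* zpowers z := MonoidHom.mk' (fun g => ⟨g * e * g⁻¹ * e⁻¹, hce g⟩) fun g h => Subtype.ext (by
      have := mem_center_iff.1 (zpowers_le_of_mem hz (hce h))
      calc g * h * e * (g * h)⁻¹ * e⁻¹ = g * (h * e * h⁻¹ * e⁻¹) * (e * g⁻¹ * e⁻¹) := by group
        _ = g * (e * g⁻¹ * e⁻¹) * (h * e * h⁻¹ * e⁻¹) := by rw [mul_assoc g, ← this, mul_assoc g]
        _ = _ := by simp only [Subgroup.coe_mul, mul_assoc])
    have hf : f.ker = centralizer {e} := by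
      ext g
      rw [MonoidHom.mem_ker, mem_centralizer_singleton_iff, Subtype.ext_iff]
      exact commutatorElement_eq_one_iff_mul_comm
    rw [← hf, index_ker]
    have h1 : Nat.card f.range ∣ p := by rw [← hzo, ← Nat.card_zpowers]; exact card_subgroup_dvd_card _
    refine ((Nat.dvd_prime hp.out).1 h1).resolve_left fun h => hec ?_
    rw [← index_ker, hf, index_eq_one] at h
    exact mem_center_iff.2 fun g => mem_centralizer_singleton_iff.1 (h ▸ mem_top g : g ∈ centralizer {e})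
  · intro i
    let π : V →ₗ[ZMod q] V := ∑ m ∈ range p, (ρ ((e * z ^ (i : ℕ)) ^ m) : V →ₗ[ZMod q] V)
    have hπ : ∀ v, π v = ∑ m ∈ range p, ρ ((e * z ^ (i : ℕ)) ^ m) v := fun v => by simp [π]
    refine Disjoint.mono_right (c := LinearMap.ker π) (iSup₂_le fun j hj w hw => ?_) ?_
    · have h1 : z ^ (i : ℕ) * (z ^ (j : ℕ))⁻¹ ≠ 1 := fun h => hj (Fin.ext (pow_injOn_Iio_orderOf
        (hzo ▸ j.2) (hzo ▸ i.2) (mul_inv_eq_one.1 h).symm))
      have h2 := hsum _ (mul_mem (npow_mem_zpowers z _) (inv_mem (npow_mem_zpowers z _))) h1 w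
      rw [LinearMap.mem_ker, hπ, ← h2]
      refine sum_congr rfl fun m _ => ?_
      have h3 : e * z ^ (i : ℕ) = z ^ (i : ℕ) * (z ^ (j : ℕ))⁻¹ * (e * z ^ (j : ℕ)) := by
        rw [((hcom e).pow_right j).eq, ((hcom e).pow_right i).eq]; group
      have h4 : Commute (z ^ (i : ℕ) * (z ^ (j : ℕ))⁻¹) (e * z ^ (j : ℕ)) :=
        (mem_center_iff.1 (mul_mem (pow_mem hz _) (inv_mem (pow_mem hz _))) _).symm
      rw [h3, h4.mul_pow, rho_mul, rho_pow_of_mem ρ hw]
    · rw [Submodule.disjoint_def]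
      intro w hw h0
      rw [LinearMap.mem_ker, hπ, sum_congr rfl fun m _ => rho_pow_of_mem ρ hw m, sum_const, card_range,
        ← Nat.cast_smul_eq_nsmul (ZMod q)] at h0
      exact (smul_eq_zero.1 h0).resolve_left hpq
  · have := hmap h 0 (by rw [mem_centralizer_singleton_iff.1 hh]; simp) i
    rw [add_zero] at this
    exact this ▸ Submodule.mem_map_of_mem hw
  · exact mem_centralizer_singleton_iff.2 ((Commute.refl e).mul_left ((hcom e).symm.pow_left _))
  · rw [eq_inv_of_mul_eq_one_left h1]; exact inv_mem (npow_mem_zpowers z _)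
  · obtain ⟨k, hk⟩ := hk g
    have hk0 : k ≠ 0 := by
      rintro rfl
      exact hg (mem_centralizer_singleton_iff.2 (mul_inv_eq_iff_eq_mul.1 (by simpa using hk)))
    refine ⟨Equiv.addRight k, orderOf_eq_prime ?_ fun h => hk0 ?_, hmap g k hk⟩
    · rw [Equiv.nsmul_addRight]
      have : p • k = 0 := by simpa using card_nsmul_eq_zero (x := k)
      rw [this, Equiv.addRight_zero]
    · simpa using congrArg (fun σ : Equiv.Perm (Fin p) => σ 0) h

end CL.Loc
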