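/-
Control of transfer by `C(Z(S))` and `N(K(S))` for odd primes (Glauberman–Niles).
-/
import Cfsg.Agent.Loc.PairK
import Cfsg.Agent.Loc.CFunSec2

set_option autoImplicit false
set_option linter.unusedSectionVars false

open Cfsg Subgroup
open scoped commutatorElement Pointwise

namespace CL.Loc

open CL.Even CL.Grp

universe u

variable {p : ℕ} [Fact p.Prime]

/-- the largest subgroup that is normal in all overgroups where transfer can fail -/
def trK (p : ℕ) (Q : Type u) [Group Q] : Subgroup Q :=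
  sSup {N | ∀ (Γ : Type u) [Group Γ] [Finite Γ] (f : Q →* Γ) (G M : Subgroup Γ),
    Function.Injective f → BadTr p f.range G M → G ≤ 𝒩(N.map f)}

theorem map_trK_le {Q R : Type u} [Group Q] [Group R] (φ : Q ≃* R) : (trK p Q).map φ.toMonoidHom ≤ trK p R := by
  rw [map_le_iff_le_comap]
  refine sSup_le fun N hN => map_le_iff_le_comap.1 (le_sSup fun Γ _ _ f G M hf h => ?_)
  rw [Subgroup.map_map]
  refine hN Γ _ G M (hf.comp φ.injective) ?_
  rwa [MonoidHom.range_comp, MonoidHom.range_eq_top.2 φ.surjective, range_eq_top_map]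

theorem isCharPFunctor_trK (hp : p ≠ 2) : IsCharPFunctor.{u} p (trK p) := by
  refine ⟨fun Q _ _ hQ _ e => ?_, fun Q R _ _ _ _ φ => le_antisymm (map_trK_le φ) fun x hx => ?_⟩
  · obtain ⟨K, h1, h2⟩ := exists_le_norm_of_badTr hp hQ
    exact h1 (eq_bot_iff.2 ((show K ≤ trK p Q from le_sSup h2).trans e.le))
  · exact ⟨φ.symm x, map_trK_le φ.symm ⟨x, hx, rfl⟩, φ.apply_symm_apply x⟩

variable {G X : Type u} [Group G] [Group X]

theorem BadTr.le_norm_trK [Finite G] {S H M : Subgroup G} (h : BadTr p S H M) :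
    H ≤ 𝒩(inducedFunctor (trK p) S) := by
  rw [inducedFunctor, trK, (gc_map_comap S.subtype).l_sSup]
  exact le_norm_iSup fun N => le_norm_iSup fun hN => hN G _ H M S.subtype_injective (by rwa [range_subtype])

/-- the product of `T ∩ C_H(Z(T))'` and `T ∩ N_H(K(T))'` -/
def pairDer (p : ℕ) (H T : Subgroup G) : Subgroup G :=
  (T ⊓ ⁅H ⊓ 𝒞(T ⊓ 𝒞(T)), H ⊓ 𝒞(T ⊓ 𝒞(T))⁆) ⊔
    (T ⊓ ⁅H ⊓ 𝒩(inducedFunctor (trK p) T), H ⊓ 𝒩(inducedFunctor (trK p) T)⁆)

theorem pairDer_mono {H K : Subgroup G} (h : H ≤ K) (T : Subgroup G) : pairDer p H T ≤ pairDer p K T :=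
  sup_le_sup (inf_le_inf_left _ (commutator_mono (inf_le_inf_right _ h) (inf_le_inf_right _ h)))
    (inf_le_inf_left _ (commutator_mono (inf_le_inf_right _ h) (inf_le_inf_right _ h)))

theorem pairDer_le (H T : Subgroup G) : pairDer p H T ≤ T ⊓ ⁅H, H⁆ :=
  sup_le (inf_le_inf_left _ (commutator_mono inf_le_left inf_le_left))
    (inf_le_inf_left _ (commutator_mono inf_le_left inf_le_left))

theorem le_pairDer_left {H T N : Subgroup G} (h : N ≤ H) (h' : N ≤ 𝒞(T ⊓ 𝒞(T))) : T ⊓ ⁅N, N⁆ ≤ pairDer p H T :=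
  le_sup_of_le_left (inf_le_inf_left _ (commutator_mono (le_inf h h') (le_inf h h')))

theorem le_pairDer_right {H T N : Subgroup G} (h : N ≤ H) (h' : N ≤ 𝒩(inducedFunctor (trK p) T)) :
    T ⊓ ⁅N, N⁆ ≤ pairDer p H T :=
  le_sup_of_le_right (inf_le_inf_left _ (commutator_mono (le_inf h h') (le_inf h h')))

/-- the pair controls transfer in `X` -/
def PairCtl (p : ℕ) (X : Type u) [Group X] : Prop :=
  ∀ S : Subgroup X, IsSylowIn p S ⊤ → S ⊓ ⁅(⊤ : Subgroup X), ⊤⁆ ≤ pairDer p ⊤ S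

variable (hp : p ≠ 2) [Finite G]
include hp

theorem PairCtl.subgroup {H T : Subgroup G} (h : PairCtl p H) (hT : IsSylowIn p T H) : T ⊓ ⁅H, H⁆ ≤ pairDer p H T := by
  have hf := H.subtype_injective
  have h1 := map_mono (f := H.subtype) (h _ (IsSylowIn.subgroupOf_top hT))
  have h2 := map_subgroupOf_eq_of_le hT.le
  rw [map_inf _ _ _ hf, map_commutator, top_map_subtype, h2, pairDer, Subgroup.map_sup, map_inf _ _ _ hf,
    map_inf _ _ _ hf, map_commutator, map_commutator, map_prp hf, map_prp hf, top_map_subtype, h2] at h1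
  refine h1.trans (sup_le le_sup_left (le_pairDer_right (map_subtype_le _) ?_))
  rw [top_inf_eq]
  have := map_normalizer_inducedFunctor_le (isCharPFunctor_trK hp) hf (IsSylowIn.subgroupOf_top hT).isPGroup
  rwa [h2] at this

omit hp in
theorem PairCtl.quotient {S D N₁ N₂ : Subgroup G} (hS : IsSylowIn p S ⊤) {f : G →* X} (hf : Function.Surjective f)
    (h : PairCtl p X) (a₁ : S ≤ N₁) (a₂ : S ≤ N₂) (b₁ : S ⊓ ⁅N₁, N₁⁆ ≤ D) (b₂ : S ⊓ ⁅N₂, N₂⁆ ≤ D)
    (c₁ : N₁.map f = 𝒞(S.map f ⊓ 𝒞(S.map f))) (c₂ : N₂.map f = 𝒩(inducedFunctor (trK p) (S.map f))) :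
    S ⊓ ⁅(⊤ : Subgroup G), ⊤⁆ ≤ D ⊔ f.ker := by
  rw [← comap_map_eq, ← map_le_iff_le_comap, ← IsSylowIn.map_inf_commutator hS, map_top_of_surjective f hf]
  refine (h _ (IsSylowIn.map_top hS hf)).trans (sup_le ?_ ?_)
  · rw [top_inf_eq, ← c₁, IsSylowIn.map_inf_commutator (hS.of_le a₁ le_top)]
    exact map_mono b₁
  · rw [top_inf_eq, ← c₂, IsSylowIn.map_inf_commutator (hS.of_le a₂ le_top)]
    exact map_mono b₂

theorem le_pairDer_of_local {S : Subgroup G} (hS : IsSylowIn p S ⊤) (h0 : S ≠ ⊥)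
    (hloc : ∀ U ≤ S, U ≠ ⊥ → PairCtl p 𝒩(U)) : S ⊓ ⁅(⊤ : Subgroup G), ⊤⁆ ≤ pairDer p ⊤ S := by
  have hW : IsConjugacyFunctor p (inducedFunctor (G := G) (trK p)) :=
    isConjugacyFunctor_inducedFunctor (isCharPFunctor_trK hp)
  have hSp := hS.isPGroup
  have key : ∀ U, IsWellPlaced p (inducedFunctor (trK p)) S U → U ≠ ⊥ →
      S ⊓ 𝒩(U) ⊓ ⁅𝒩(U), 𝒩(U)⁆ ≤ pairDer p ⊤ S := by
    refine wellPlaced_induction hW hSp _ fun U hU IH hU0 => ?_
    have hE := isExtremalIn_of_isWellPlaced hSp hU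
    refine ((hloc U hU.1 hU0).subgroup hp hE.2).trans (sup_le ?_ ?_)
    · refine (inf_le_inf_right _ inf_le_left).trans (le_pairDer_left le_top (inf_le_right.trans (cent_mono ?_)))
      exact le_inf (inf_le_inf_left _ ((cent_mono hU.1).trans (cent_le_norm U)))
        (inf_le_right.trans (cent_mono inf_le_left))
    · rcases (inf_le_left : S ⊓ 𝒩(U) ≤ S).eq_or_lt with e | e
      · rw [e]
        exact le_pairDer_right le_top inf_le_right
      · exact (inf_le_inf (lt_inf_normalizer_cfun hW hSp e).le (commutator_mono inf_le_right inf_le_right)).trans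
          (IH e (cfun_ne_bot hW hSp.to_inf_left fun e' => hU0 (eq_bot_iff.2 ((le_inf hU.1 le_normalizer).trans e'.le))))
  refine IsSylowIn.inf_commutator_le hS fun x hx g _ hg => FocRel.zpowers ?_
  refine (fusRel_focRel _).alperin_centric hS (IsWellPlaced p (inducedFunctor (trK p)) S)
    (fun _ h => isExtremalIn_of_isWellPlaced hSp h) (fun T hT => exists_wellPlaced_conj hW hS T hT) ?_ ?_ _
    (zpowers_le.2 hx) g (conj_smul_zpowers_le hg)
  · intro A _ c hc a ha
    rw [← hc a ha]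
    simp
  · intro U hU hc x hx a ha
    have h2 := U.mul_mem (U.inv_mem ha) (conj_mem hx ha)
    refine key U hU (fun e => h0 ?_) ⟨⟨hU.1 h2, le_normalizer h2⟩, inv_mul_conj_mem_commutator (le_normalizer ha) hx⟩
    rw [e, coe_bot, centralizer_eq_top_iff_subset.2 (by simp), inf_top_eq] at hc
    exact le_bot_iff.1 hc

theorem pairCtl_of_lt (IH : ∀ (Y : Type u) [Group Y] [Finite Y], Nat.card Y < Nat.card G → PairCtl p Y) :
    PairCtl p G := by
  intro S hS
  have hW := isCharPFunctor_trK.{u} hp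
  have hSp := hS.isPGroup
  by_contra hn
  have hsub : ∀ H : Subgroup G, H ≠ ⊤ → S ≤ H → S ⊓ ⁅H, H⁆ ≤ pairDer p ⊤ S := fun H hH hSH =>
    ((IH H (card_subgroup_lt hH)).subgroup hp (hS.of_le hSH le_top)).trans (pairDer_mono le_top S)
  have h0 : S ≠ ⊥ := fun e => hn (inf_le_left.trans (e.le.trans bot_le))
  have hT : pCore p G ≠ ⊥ := fun hT => hn (le_pairDer_of_local hp hS h0 fun U hU hU0 => IH _ (card_subgroup_lt
    (normalizer_ne_top_of_not_le_pCore (hSp.to_le hU) (by rwa [hT, le_bot_iff]))))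
  have hO : pPrimeCore p G = ⊥ := by
    by_contra hO
    have hf := QuotientGroup.mk'_surjective (pPrimeCore p G)
    have hk : (Nat.card (QuotientGroup.mk' (pPrimeCore p G)).ker).Coprime p := by
      rw [QuotientGroup.ker_mk']; exact pPrimeCore_coprime p G
    have hSk : S ⊓ (QuotientGroup.mk' (pPrimeCore p G)).ker = ⊥ := by
      rw [QuotientGroup.ker_mk']; exact inf_pPrimeCore_eq_bot hSp
    have := PairCtl.quotient hS hf (IH _ (card_quotient_lt hO)) (le_centralizer_iff.1 inf_le_right)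
      (le_normalizer_inducedFunctor hW hSp) (le_pairDer_left le_top le_rfl) (le_pairDer_right le_top le_rfl) (by
        rw [map_centralizer_of_ker_coprime hf hk hSp.to_inf_left]
        congr 2
        refine le_antisymm ((map_inf_le _ _ _).trans (inf_le_inf_left _ ?_)) ?_
        · rw [map_centralizer_of_ker_coprime hf hk hSp]
        · rintro _ ⟨⟨x, hx, rfl⟩, hc⟩
          refine ⟨x, ⟨hx, fun y hy => ?_⟩, rfl⟩
          rw [← commutatorElement_eq_one_iff_mul_comm, ← mem_bot, ← hSk]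
          exact mem_inf.2 ⟨commutator_le_self S (commutator_mem_commutator hy hx), by
            rw [MonoidHom.mem_ker, map_commutatorElement, commutatorElement_eq_one_iff_mul_comm]
            exact hc _ ⟨y, hy, rfl⟩⟩)
      (by rw [map_normalizer_of_ker_coprime hf hk (inducedFunctor_isPGroup _ hSp), map_inducedFunctor hW _ hSp hSk])
    refine hn (le_of_le_sup_normal_of_inf_le (pairDer_le _ _) this ?_)
    rw [← inf_assoc, inf_comm _ S, hSk, bot_inf_eq]
    exact bot_le
  have hK : ¬ ⊤ ≤ 𝒩(inducedFunctor (trK p) S) := fun e => hn (le_pairDer_right le_rfl e)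
  have hQS := IsSylowIn.pCore_le hS
  have hSQ : ¬ S ≤ pCore p G := fun e => hK (le_trans (by rw [le_antisymm e hQS, normalizer_eq_top])
    (normalizer_le_normalizer_inducedFunctor hW hSp))
  have hStop : S ≠ ⊤ := by
    rintro rfl
    exact hSQ (le_pCore hSp)
  have h1 : ¬ ⁅pCore p G, (⊤ : Subgroup G)⁆ ≤ pairDer p ⊤ S := fun e => by
    have hf := QuotientGroup.mk'_surjective (pCore p G)
    obtain ⟨h4, h5⟩ := comap_normalizer_inducedFunctor hW hS hSQ
    have hS' := hSp.map (QuotientGroup.mk' (pCore p G))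
    have h6 : S ≤ 𝒞(S.map (QuotientGroup.mk' (pCore p G)) ⊓ 𝒞(S.map (QuotientGroup.mk' (pCore p G)))).comap
        (QuotientGroup.mk' (pCore p G)) := map_le_iff_le_comap.1 (le_centralizer_iff.1 inf_le_right)
    have := PairCtl.quotient hS hf (IH _ (card_quotient_lt hT)) h6 h5 (hsub _ (fun e' => ?_) h6) (hsub _ h4 h5)
      (map_comap_eq_self_of_surjective hf _) (map_comap_eq_self_of_surjective hf _)
    · rw [QuotientGroup.ker_mk'] at this
      exact hn (le_of_le_sup_normal_of_inf_le (pairDer_le _ _) this ((inf_le_inf_left _ inf_le_right).trans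
        (inf_commutator_le_of_normal hS hQS ((le_inf (commutator_le_self S) le_rfl).trans (hsub S hStop le_rfl)) e)))
    · refine normalizer_ne_top_of_not_le_pCore (hS'.to_inf_left (K := 𝒞(S.map (QuotientGroup.mk' (pCore p G))))) ?_
        (top_le_iff.1 ((comap_injective hf (e'.trans (comap_top _).symm)).ge.trans (cent_le_norm _)))
      rw [pCore_quotient_pCore, le_bot_iff]
      exact inf_cent_ne_bot hS' hS' le_normalizer (by rwa [Ne, Subgroup.map_eq_bot_iff, QuotientGroup.ker_mk'])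
  have h2 : ∀ H : Subgroup G, H ≠ ⊤ → S ≤ H → H ≤ cmod (pCore p G) (pairDer p ⊤ S ⊓ pCore p G) := fun H hH hSH => by
    have : ⁅pCore p G, H⁆ ≤ pairDer p ⊤ S ⊓ pCore p G := le_inf ((le_inf ((commutator_le_left _ _).trans hQS)
      (commutator_mono (hQS.trans hSH) le_rfl)).trans (hsub H hH hSH)) (commutator_le_left _ _)
    exact le_cmod (le_norm_of_commutator_le ((commutator_mono inf_le_right le_rfl).trans this)) this
  have h3 : ∀ H : Subgroup G, H ≤ cmod (pCore p G) (pairDer p ⊤ S ⊓ pCore p G) → ⁅pCore p G, H⁆ ≤ pairDer p ⊤ S :=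
    fun H e => (commutator_le_of_le_cmod e).trans inf_le_left
  have hU : UMax S (cmod (pCore p G) (pairDer p ⊤ S ⊓ pCore p G)) ⊤ :=
    ⟨h2 S hStop le_rfl, lt_top_iff_ne_top.2 fun e => h1 (h3 _ e.ge), fun H a b => h2 H b.ne a⟩
  have hn' : ¬ ⊤ ≤ 𝒩(S) := fun e => hK (e.trans (normalizer_le_normalizer_inducedFunctor hW hSp))
  have h4 : S ⊓ 𝒞(pCore p G) ≤ pCore p G := by
    have := (hU.pIrr hS hn').inf_cent_le_core (V := pCore p G) le_normalizer_of_normal (fun e => ?_) le_top hSp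
    · rwa [core_top] at this
    refine hU.not_res_le hS (e.trans (le_cmod ((cent_mono inf_le_right).trans (cent_le_norm _)) ?_))
    exact (commutator_eq_bot_iff'.2 le_rfl).le.trans bot_le
  refine hK (BadTr.le_norm_trK ⟨hS, isCharP_top.2 (centralizer_pCore_le_of_inf_le hS h4 hO), hU,
    fun e => hn (le_pairDer_left le_rfl (le_centralizer_iff.1 e)), fun e => h1 ?_⟩)
  rw [core_top] at e
  exact e.trans (h3 _ le_rfl)

/-- **Glauberman–Niles**: `C(Z(S))` and `N(K(S))` control transfer for odd `p` -/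
theorem pairCtl : PairCtl p G := by
  suffices h : ∀ (n : ℕ) (Y : Type u) [Group Y] [Finite Y], Nat.card Y = n → PairCtl p Y from h _ G rfl
  intro n
  induction n using Nat.strong_induction_on with
  | _ n ih => exact fun Y _ _ e => pairCtl_of_lt hp fun Z _ _ hZ => ih _ (e ▸ hZ) Z rfl

end CL.Loc
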