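/-
Quadratic action on an irreducible module gives a section `SL(2,p)`; `PSL₂(q)`, `q` odd, has no such section
(helper28).
-/
import Cfsg.Agent.Loc.QuadDickson
import Cfsg.Agent.Loc.QuadStab2
import Cfsg.Agent.Even.Amb2
import Cfsg.Agent.Cls.SL2Forms
import Cfsg.Agent.Cls.SL2Sylow2
import Cfsg.Statements.S2787

set_option autoImplicit false
open Cfsg CL.Grp CL.Even
open scoped commutatorElement

namespace CL.Loc

variable {G : Type*} [Group G] {p : ℕ} [Fact p.Prime]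

theorem involves_SL2_of_quad_irr [Finite G] (h2 : p ≠ 2) {V H A : Subgroup G} (hV : IsElementaryAbelian p V)
    (hHV : H ≤ 𝒩(V)) (hirr : ∀ U : Subgroup G, U ≤ V → H ≤ 𝒩(U) → U = ⊥ ∨ U = V)
    [((𝒞(V)).subgroupOf H).Normal] (hA : A ≤ H) (hq : ⁅⁅V, A⁆, A⁆ = ⊥) (hne : ⁅V, A⁆ ≠ ⊥) :
    Involves (Matrix.SpecialLinearGroup (Fin 2) (ZMod p)) (H ⧸ (𝒞(V)).subgroupOf H) := by
  obtain ⟨a, ha, ha'⟩ := SetLike.not_le_iff_exists.mp (mt commutator_eq_bot_iff'.mpr hne)
  have hVp : IsPGroup p V := isPGroup_iff_forall.mpr fun x hx => ⟨1, by rw [pow_one, hV.2 x hx]⟩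
  have h1 : (QuotientGroup.mk (⟨a, hA ha⟩ : H) : H ⧸ (𝒞(V)).subgroupOf H) ∉ pCore p _ := fun hc => by
    set R := ((pCore p (H ⧸ (𝒞(V)).subgroupOf H)).comap (QuotientGroup.mk' _)).map H.subtype
    have hn : H ≤ 𝒩(R) := fun y hy =>
      Subgroup.le_normalizer_map H.subtype ⟨⟨y, hy⟩, Subgroup.le_normalizer_of_normal (Subgroup.mem_top _), rfl⟩
    have hr : pResidualOf p R ≤ 𝒞(V) := res_le_of_pow (by
      rintro _ ⟨x, hx, rfl⟩
      obtain ⟨k, hk⟩ := isPGroup_iff_forall.mp pCore_isP _ hx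
      exact ⟨k, (QuotientGroup.eq_one_iff (x ^ p ^ k)).mp hk⟩)
    obtain ⟨T, hT⟩ := exists_isSylowIn p R
    have hV1 : V ≠ ⊥ := fun e => hne (by rw [e, Subgroup.commutator_bot_left])
    have h3 : V ⊓ 𝒞(T) ≤ V ⊓ 𝒞(R) := le_inf inf_le_left (Subgroup.le_centralizer_iff.mp
      (le_of_syl_of_res hT (Subgroup.le_centralizer_iff.mp inf_le_right) (hr.trans (cent_mono inf_le_left))))
    rcases hirr _ inf_le_left (le_norm_inf hHV (le_norm_cent hn)) with h | h
    · exact inf_cent_ne_bot hVp hT.isPGroup (hT.le.trans ((Subgroup.map_subtype_le _).trans hHV)) hV1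
        (le_bot_iff.mp (h3.trans h.le))
    · exact ha' (Subgroup.le_centralizer_iff.mp (inf_eq_left.mp h) ⟨⟨a, hA ha⟩, hc, rfl⟩)
  obtain ⟨g, hg, hnp⟩ := exists_conj_not_pElement_mod' h1
  have hqa : ∀ v ∈ V, Commute ⁅v, a⁆ a := fun v hv => commute_of_commutator_commutator_eq_bot hq hv ha ha
  have hb := H.mul_mem (H.mul_mem hg (hA ha)) (H.inv_mem hg)
  obtain ⟨K, U, hK, hU, h⟩ := exists_naturalSL2Module_of_quad_pair (dicksonSL2 h2) hV (hHV (hA ha)) (hHV hb) hqa
    (quad_conj (hHV hg) hqa) hnp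
  obtain ⟨φ, hφ, hk⟩ := exists_surjective_of_naturalSL2Module h
  have hKH : K ≤ H := hK.trans ((Subgroup.closure_le H).mpr (Set.pair_subset (hA ha) hb))
  refine involves_quotient_of_le_ker (φ.comp (Subgroup.subgroupOfEquivOfLe hKH).toMonoidHom)
    (hφ.comp (MulEquiv.surjective _)) _ fun x hx => ?_
  change Subgroup.subgroupOfEquivOfLe hKH x ∈ φ.ker
  rw [hk]
  exact cent_mono hU hx

theorem not_involves_SL2_PSL2 (h2 : p ≠ 2) {F : Type*} [Field F] [Finite F] (hF : (2 : F) ≠ 0) :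
    ¬ Involves (Matrix.SpecialLinearGroup (Fin 2) (ZMod p)) (Matrix.ProjectiveSpecialLinearGroup (Fin 2) F) := by
  intro h
  have : Fact (Nat.Prime 2) := ⟨Nat.prime_two⟩
  obtain ⟨K, φ, hφ⟩ := involves_iff.mp h
  let π := QuotientGroup.mk' (Subgroup.center (Matrix.SpecialLinearGroup (Fin 2) F))
  let ψ := φ.comp (π.subgroupComap K)
  have hψ : Function.Surjective ψ :=
    hφ.comp (π.subgroupComap_surjective_of_surjective K (QuotientGroup.mk'_surjective _))
  obtain ⟨Q, hQ, hQ'⟩ := exists_two_subgroup_not_comm h2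
  obtain ⟨S, hS⟩ := hQ.exists_le_sylow
  obtain ⟨S, rfl⟩ := Sylow.mapSurjective_surjective hψ 2 S
  suffices ∀ x y : (S : Subgroup (K.comap π)), ψ x * ψ y = ψ y * ψ x by
    refine hQ' ⟨⟨fun x y => Subtype.ext ?_⟩⟩
    obtain ⟨a, ha, ea⟩ := hS x.2
    obtain ⟨b, hb, eb⟩ := hS y.2
    rw [Subgroup.coe_mul, Subgroup.coe_mul, ← ea, ← eb]
    exact this ⟨a, ha⟩ ⟨b, hb⟩
  have key : ∀ x : (S : Subgroup (K.comap π)), x * x * (x * x) = 1 → ∀ y, ψ x * y = y * ψ x := fun x hx y => by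
    have h1 : π (x * x) = 1 := by
      rw [QuotientGroup.mk'_apply, QuotientGroup.eq_one_iff, Subgroup.mem_center_iff]
      rcases CL.SL2.sl_eq_of_mul_self hF (g := x * x) (congrArg (fun z : (S : Subgroup (K.comap π)) =>
        (z : Matrix.SpecialLinearGroup (Fin 2) F)) hx) with e | e <;> simp [e]
    have h3 : ψ x * ψ x = 1 := by
      rw [← map_mul, ← φ.map_one]
      exact congrArg φ (Subtype.ext h1)
    rcases CL.SL2.sl_eq_of_mul_self (two_ne_zero_zmod h2) h3 with e | e <;> simp [e]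
  intro x y
  rcases CL.SL2.isCyclic_or_quaternion hF S.isPGroup' ((K.comap π).subtype.comp (Subgroup.subtype _))
    ((Subgroup.subtype_injective _).comp (Subgroup.subtype_injective _)) with h | ⟨k, ⟨e⟩⟩
  · rw [← map_mul, ← map_mul, ← Subgroup.coe_mul, ← Subgroup.coe_mul, IsCyclic.commGroup.mul_comm x y]
  · have k1 : ∀ z i, e z = QuaternionGroup.xa i → z * z * (z * z) = 1 := fun z i hz => e.injective (by
      rw [map_one, ← QuaternionGroup.xa_pow_four i, ← hz, ← map_pow]; congr 1; simp [pow_succ, mul_assoc])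
    rcases hx : e x with i | i
    · rcases hy : e y with j | j
      · rw [← map_mul, ← map_mul, ← Subgroup.coe_mul, ← Subgroup.coe_mul, show x * y = y * x from e.injective (by
          rw [map_mul, map_mul, hx, hy, QuaternionGroup.a_mul_a, QuaternionGroup.a_mul_a, add_comm i])]
      · exact (key y (k1 y j hy) _).symm
    · exact key x (k1 x i hx) _

/-- S2787, given that the small Ree groups have abelian Sylow 2-subgroups (S1152). -/
theorem s2787_of_ree (hRee : ∀ (K : Type) [Field K] [Fintype K] (m : ℕ), 1 ≤ m → Fintype.card K = 3 ^ (2 * m + 1) →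
    ∀ S : Sylow 2 (Cfsg.Lie.twistedG2 K (3 ^ m)), ∀ x ∈ S, x * x = 1) : type_of% @Cfsg.CfsgFrozen.S2787 := by
  intro G _ _ p _ V H hV hHV hirr _ _ hq A hA hquad
  by_contra hne
  rcases hq with ⟨F, _, _, n, h1, h2, ⟨e⟩⟩ | ⟨rfl, K, _, _, m, h1, h2, ⟨e⟩⟩
  · have hp : p ≠ 2 := by
      rintro rfl
      rcases n with _ | n
      · exact Fintype.one_lt_card.ne' h1
      · exact h2.not_two_dvd_nat (h1 ▸ dvd_pow_self 2 n.succ_ne_zero)
    refine not_involves_SL2_PSL2 hp (F := F) (fun h => ?_)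
      ((involves_congr_right e).mp (involves_SL2_of_quad_irr hp hV hHV hirr hA hquad hne))
    have : CharP F 2 := (CharP.charP_iff_prime_eq_zero Nat.prime_two).mpr h
    obtain ⟨k, -, hk⟩ := FiniteField.card F 2
    exact h2.not_two_dvd_nat (hk ▸ dvd_pow_self 2 k.ne_zero)
  · have : Finite (Cfsg.Lie.twistedG2 K (3 ^ m)) := Finite.of_equiv _ e.toEquiv
    have : Fact (Nat.Prime 2) := ⟨Nat.prime_two⟩
    obtain ⟨S⟩ : Nonempty (Sylow 2 (Cfsg.Lie.twistedG2 K (3 ^ m))) := inferInstance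
    refine not_isMulCommutative_sylow_two_of_involves (p := 3) (by decide)
      ((involves_congr_right e).mp (involves_SL2_of_quad_irr (by decide) hV hHV hirr hA hquad hne)) S
      ⟨⟨fun x y => Subtype.ext ?_⟩⟩
    have h := hRee K m h1 h2 S
    rw [← inv_eq_of_mul_eq_one_right (h _ (x * y).2), Subgroup.coe_mul, mul_inv_rev,
      inv_eq_of_mul_eq_one_right (h _ x.2), inv_eq_of_mul_eq_one_right (h _ y.2), Subgroup.coe_mul]

end CL.Loc
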